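import Mathlib
import Cfsg.Agent.Lib.Helper37.U27.Defs
import Cfsg.Agent.Lib.Helper45.HermSU

/-!
# Project U27 (S5999), package [RSUB]: `R0 w ≤ SU_3(q)`, hence so is every unitary conjugate
-/

set_option autoImplicit false
open scoped MatrixGroups Matrix

namespace Cfsg.Agent.Lib.Helper62.U27

open Cfsg.Agent.Lib.Helper37.U27 Cfsg.Agent.Lib.Helper45

universe u

/-- The shift matrix is unitary. -/
theorem isHermIso_Xm (F : Type u) [Field F] (q : ℕ) : IsHermIso 3 F q (Xm F) := by
  intro a b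
  simp only [Cfsg.hermForm, Xm, Matrix.mulVec, dotProduct, Fin.sum_univ_three, Matrix.of_apply,
    Matrix.cons_val', Matrix.cons_val_zero, Matrix.cons_val_one, Matrix.cons_val_two,
    Matrix.empty_val', Matrix.cons_val_fin_one, Matrix.head_cons, Matrix.tail_cons,
    Matrix.head_fin_const]
  simp
  ring

theorem det_Xm (F : Type u) [Field F] : (Xm F).det = 1 := by
  simp [Xm, Matrix.det_fin_three]

theorem cube_of_quad {F : Type u} [Field F] {w : F} (hw : w ^ 2 + w + 1 = 0) : w ^ 3 = 1 := by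
  have h : w ^ 3 - 1 = (w - 1) * (w ^ 2 + w + 1) := by ring
  rw [hw, mul_zero] at h
  exact sub_eq_zero.mp h

theorem det_Zm {F : Type u} [Field F] {w : F} (hw : w ^ 2 + w + 1 = 0) : (Zm w).det = 1 := by
  rw [Zm, Matrix.det_diagonal, Fin.prod_univ_three]
  simp only [Matrix.cons_val_zero, Matrix.cons_val_one, Matrix.cons_val_two, Matrix.head_cons,
    Matrix.tail_cons]
  have h := cube_of_quad hw
  simp
  rw [← pow_succ']
  exact h

/-- The clock matrix is unitary when `3 ∣ q + 1`. -/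
theorem isHermIso_Zm {F : Type u} [Field F] [Fintype F] {q : ℕ} {w : F} (hw : w ^ 2 + w + 1 = 0)
    (h3 : 3 ∣ q + 1) : IsHermIso 3 F q (Zm w) := by
  have hw3 := cube_of_quad hw
  obtain ⟨k, hk⟩ := h3
  have hwq : w ^ (q + 1) = 1 := by rw [hk, pow_mul, hw3, one_pow]
  apply isHermIso_diagonal
  intro i
  fin_cases i
  · simp
  · simpa using hwq
  · show (w ^ 2) ^ (q + 1) = 1
    rw [← pow_mul, mul_comm, pow_mul, hwq, one_pow]

/-- **[RSUB]** `R0 w ≤ SU_3(q)`, hence so is every unitary conjugate. -/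
theorem pkgRSub : PkgRSub.{u} := by
  intro F _ _ q w g y hF h3 hw hg hy
  have hle : R0 w ≤ Gp F q := by
    rw [R0, Subgroup.closure_le]
    rintro y0 (h | h)
    · refine ⟨?_, ?_⟩
      · show IsHermIso 3 F q (y0 : Matrix (Fin 3) (Fin 3) F)
        rw [h]
        exact isHermIso_Xm F q
      · show y0 ∈ (Matrix.GeneralLinearGroup.det : GL (Fin 3) F →* Fˣ).ker
        rw [MonoidHom.mem_ker]
        apply Units.ext
        rw [Matrix.GeneralLinearGroup.val_det_apply, h, det_Xm]
        rfl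
    · refine ⟨?_, ?_⟩
      · show IsHermIso 3 F q (y0 : Matrix (Fin 3) (Fin 3) F)
        rw [h]
        exact isHermIso_Zm hw h3
      · show y0 ∈ (Matrix.GeneralLinearGroup.det : GL (Fin 3) F →* Fˣ).ker
        rw [MonoidHom.mem_ker]
        apply Units.ext
        rw [Matrix.GeneralLinearGroup.val_det_apply, h, det_Zm hw]
        rfl
  have hz := hle hy
  have e : y = g * (g⁻¹ * y * g) * g⁻¹ := by group
  rw [e]
  refine ⟨(Cfsg.GU 3 F q).mul_mem ((Cfsg.GU 3 F q).mul_mem hg hz.1) ((Cfsg.GU 3 F q).inv_mem hg), ?_⟩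
  have hn : (Cfsg.Geo.specialLinear (Fin 3) F).Normal :=
    MonoidHom.normal_ker (Matrix.GeneralLinearGroup.det : GL (Fin 3) F →* Fˣ)
  exact hn.conj_mem _ hz.2 g

end Cfsg.Agent.Lib.Helper62.U27
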