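import Mathlib
import Cfsg.Agent.Lib.Helper37.U27.Defs

/-!
# Project U27 (S5999), package [PROJ]: the spectral projectors of a matrix with `Y ^ m = 1`
-/

set_option autoImplicit false
open scoped Matrix

namespace Cfsg.Agent.Lib.Helper62.U27

universe u

/-- **[PROJ]** the spectral projectors of a matrix with `Y^m = 1`. -/
theorem pkgProj : Cfsg.Agent.Lib.Helper37.U27.PkgProj.{u} := by
  intro F _ Y m ζ hζ hm hY
  have : NeZero m := ⟨by omega⟩
  have hm0 : (m : F) ≠ 0 := (hζ.neZero' (R := F)).ne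
  have hinv : IsPrimitiveRoot ζ⁻¹ m := hζ.inv
  have hζ0 : ζ ≠ 0 := hζ.ne_zero (by omega)
  obtain ⟨f, hf⟩ : ∃ f : ℕ → ℕ → Matrix (Fin 3) (Fin 3) F,
      f = fun k i => (ζ⁻¹) ^ (i * k) • Y ^ i := ⟨_, rfl⟩
  have hfa : ∀ k i, f k i = (ζ⁻¹) ^ (i * k) • Y ^ i := fun k i => by rw [hf]
  refine ⟨fun j => (m : F)⁻¹ • ∑ i ∈ Finset.range m, f (j : ℕ) i, ?_, ?_, ?_⟩
  · rw [Fin.sum_univ_eq_sum_range (fun k => (m : F)⁻¹ • ∑ i ∈ Finset.range m, f k i) m,
      ← Finset.smul_sum, Finset.sum_comm]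
    have h1 : ∀ i ∈ Finset.range m,
        ∑ k ∈ Finset.range m, f k i = (if i = 0 then (m : F) else 0) • Y ^ i := by
      intro i hi
      have e : ∑ k ∈ Finset.range m, f k i = (∑ k ∈ Finset.range m, (ζ⁻¹) ^ (i * k)) • Y ^ i := by
        rw [Finset.sum_smul]
        exact Finset.sum_congr rfl (fun k _ => hfa k i)
      rw [e]
      congr 1
      split_ifs with h0
      · subst h0
        simp
      · have hη : (ζ⁻¹) ^ i ≠ 1 := hinv.pow_ne_one_of_pos_of_lt h0 (Finset.mem_range.mp hi)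
        have h2 : ∑ k ∈ Finset.range m, (ζ⁻¹) ^ (i * k)
            = ∑ k ∈ Finset.range m, ((ζ⁻¹) ^ i) ^ k :=
          Finset.sum_congr rfl (fun k _ => pow_mul _ _ _)
        rw [h2]
        have h3 := mul_geom_sum ((ζ⁻¹) ^ i) m
        have h4 : ((ζ⁻¹) ^ i) ^ m = 1 := by
          rw [← pow_mul, mul_comm, pow_mul, hinv.pow_eq_one, one_pow]
        rw [h4, sub_self] at h3
        exact (mul_eq_zero.mp h3).resolve_left (sub_ne_zero.mpr hη)
    rw [Finset.sum_congr rfl h1, Finset.sum_eq_single 0]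
    · rw [if_pos rfl, pow_zero, smul_smul, inv_mul_cancel₀ hm0, one_smul]
    · intro i _ hi
      rw [if_neg hi, zero_smul]
    · intro h
      exact absurd (Finset.mem_range.mpr hm) h
  · intro j
    show Y * ((m : F)⁻¹ • ∑ i ∈ Finset.range m, f (j : ℕ) i)
      = ζ ^ (j : ℕ) • ((m : F)⁻¹ • ∑ i ∈ Finset.range m, f (j : ℕ) i)
    have h1 : ∀ i, Y * f (j : ℕ) i = ζ ^ (j : ℕ) • f (j : ℕ) (i + 1) := by
      intro i
      rw [hfa, hfa, Matrix.mul_smul, smul_smul, ← pow_succ' Y i]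
      congr 1
      rw [add_mul, one_mul, pow_add, mul_comm ((ζ⁻¹) ^ (i * (j : ℕ))), ← mul_assoc, ← mul_pow,
        mul_inv_cancel₀ hζ0, one_pow, one_mul]
    have h2 : ∑ i ∈ Finset.range m, f (j : ℕ) (i + 1) = ∑ i ∈ Finset.range m, f (j : ℕ) i := by
      have e1 := Finset.sum_range_succ (f (j : ℕ)) m
      have e2 := Finset.sum_range_succ' (f (j : ℕ)) m
      have e3 : f (j : ℕ) m = f (j : ℕ) 0 := by
        rw [hfa, hfa, hY, pow_mul, hinv.pow_eq_one, one_pow, zero_mul, pow_zero, pow_zero]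
      rw [e2, e3] at e1
      exact add_right_cancel e1
    rw [Matrix.mul_smul, Finset.mul_sum, Finset.sum_congr rfl (fun i _ => h1 i), ← Finset.smul_sum,
      h2, smul_comm]
  · intro W hW j u hu
    show ((m : F)⁻¹ • ∑ i ∈ Finset.range m, f (j : ℕ) i) *ᵥ u ∈ W
    have hpow : ∀ i : ℕ, ∀ v ∈ W, (Y ^ i) *ᵥ v ∈ W := by
      intro i
      induction i with
      | zero => intro v hv; rw [pow_zero, Matrix.one_mulVec]; exact hv
      | succ i ih =>
        intro v hv
        rw [pow_succ', ← Matrix.mulVec_mulVec]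
        exact hW _ (ih v hv)
    have hsum : ∀ v ∈ W, (∑ i ∈ Finset.range m, f (j : ℕ) i) *ᵥ v ∈ W := by
      refine Finset.sum_induction (f (j : ℕ)) (fun M => ∀ v ∈ W, M *ᵥ v ∈ W) ?_ ?_ ?_
      · intro a b ha hb v hv
        rw [Matrix.add_mulVec]
        exact W.add_mem (ha v hv) (hb v hv)
      · intro v _
        rw [Matrix.zero_mulVec]
        exact W.zero_mem
      · intro i _ v hv
        rw [hfa, Matrix.smul_mulVec]
        exact W.smul_mem _ (hpow i v hv)
    rw [Matrix.smul_mulVec]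
    exact W.smul_mem _ (hsum u hu)

end Cfsg.Agent.Lib.Helper62.U27
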